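import Cfsg.Agent.Lib.Helper11.WE7a.K0

set_option autoImplicit false
set_option maxRecDepth 100000

namespace Cfsg.Agent.Lib.Helper11.WE7a

theorem chkAll : ∀ j < 3, blk fc sc rt.get INV isH j = true :=
  guardB_spec (D := 2) b0 (by norm_num)

theorem clAll : ∀ jb < 2, cblk fc nc cc (256 * 3) 56 139984046386112763159840142535527767382602843577165595931249318810236991948760059086304843329475444736 gens jb = true :=
  guardB_spec (D := 1) c0 (by norm_num)

theorem hN0 : getN nc 0 = 0 := by decide +kernel


end Cfsg.Agent.Lib.Helper11.WE7a
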